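import Cfsg.Agent.H105.SzO1

/-!
# S5716, reducible part, orthogonal groups: squares and the index of `E Q` in `O Q` (helper888)

* `exists_nu` : the nonzero elements of a finite field are `c ^ 2` or `ν c ^ 2`;
* `card_O_le` : `|O Q| ≤ 4 |E Q|`.
-/

set_option autoImplicit false
set_option linter.unusedSectionVars false

namespace Cfsg.Agent.H888.Rx

open Module QuadraticMap Cfsg.Agent.LieClassical.OrthCore Cfsg.Agent.LieClassical.OrthTrans
open Cfsg.Agent.LieClassical.OrthFinite

/-- square classes -/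
theorem exists_nu (F : Type*) [Field F] [Finite F] :
    ∃ ν : F, ν ≠ 0 ∧ ∀ a : F, a ≠ 0 → ∃ c : F, c ≠ 0 ∧ (a = c ^ 2 ∨ a = ν * c ^ 2) := by
  classical
  have := Fintype.ofFinite F
  by_cases h2 : ringChar F = 2
  · refine ⟨1, one_ne_zero, fun a ha => ?_⟩
    obtain ⟨c, hc⟩ := FiniteField.isSquare_of_char_two h2 a
    refine ⟨c, ?_, Or.inl (by rw [hc, pow_two])⟩
    rintro rfl
    exact ha (by rw [hc, mul_zero])
  · obtain ⟨ν, hν⟩ := FiniteField.exists_nonsquare h2
    have hν0 : ν ≠ 0 := by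
      rintro rfl
      exact hν (IsSquare.zero)
    refine ⟨ν, hν0, fun a ha => ?_⟩
    by_cases hs : IsSquare a
    · obtain ⟨c, hc⟩ := hs
      refine ⟨c, ?_, Or.inl (by rw [hc, pow_two])⟩
      rintro rfl
      exact ha (by rw [hc, mul_zero])
    · have h3 : IsSquare (a * ν) := by
        rw [← quadraticChar_one_iff_isSquare (mul_ne_zero ha hν0), map_mul,
          quadraticChar_neg_one_iff_not_isSquare.2 hs, quadraticChar_neg_one_iff_not_isSquare.2 hν]
        norm_num
      obtain ⟨c, hc⟩ := h3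
      have hc0 : c ≠ 0 := by
        rintro rfl
        exact mul_ne_zero ha hν0 (by rw [hc, mul_zero])
      refine ⟨c / ν, div_ne_zero hc0 hν0, Or.inr ?_⟩
      have : a = c * c / ν := by rw [← hc, mul_div_cancel_right₀ _ hν0]
      rw [this]
      field_simp

variable {F V : Type*} [Field F] [AddCommGroup V] [Module F V]

/-- the group generated by two commuting involutions -/
def four {Γ : Type*} [Group Γ] (r s : Γ) (hr : r * r = 1) (hs : s * s = 1) (hc : s * r = r * s) : Subgroup Γ where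
  carrier := Set.range fun p : Bool × Bool => (if p.1 then r else 1) * (if p.2 then s else 1)
  one_mem' := ⟨(false, false), by simp⟩
  mul_mem' := by
    have h1 : ∀ x : Γ, r * (r * x) = x := fun x => by rw [← mul_assoc, hr, one_mul]
    have h3 : ∀ x : Γ, s * (r * x) = r * (s * x) := fun x => by rw [← mul_assoc, hc, mul_assoc]
    rintro _ _ ⟨⟨a, b⟩, rfl⟩ ⟨⟨c, d⟩, rfl⟩
    refine ⟨(xor a c, xor b d), ?_⟩
    cases a <;> cases b <;> cases c <;> cases d <;> simp [mul_assoc, hr, hs, hc, h1, h3]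
  inv_mem' := by
    have h1 : r⁻¹ = r := inv_eq_of_mul_eq_one_left hr
    have h2 : s⁻¹ = s := inv_eq_of_mul_eq_one_left hs
    rintro _ ⟨⟨a, b⟩, rfl⟩
    refine ⟨(a, b), ?_⟩
    cases a <;> cases b <;> simp [h1, h2, hc]

theorem card_four {Γ : Type*} [Group Γ] (r s : Γ) (hr : r * r = 1) (hs : s * s = 1) (hc : s * r = r * s) :
    Nat.card (four r s hr hs hc) ≤ 4 := by
  have h : Nat.card (Bool × Bool) = 4 := by simp
  rw [← h]
  refine Nat.card_le_card_of_surjective
    (fun p : Bool × Bool => (⟨(if p.1 then r else 1) * (if p.2 then s else 1), p, rfl⟩ : four r s hr hs hc)) ?_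
  rintro ⟨_, p, rfl⟩
  exact ⟨p, rfl⟩

/-- **the index of `E Q`** -/
theorem card_O_le [Finite F] [Module.Finite F V] {Q : QuadraticForm F V} (hG : Good Q) :
    Nat.card (O Q) ≤ 4 * Nat.card (E Q) := by
  classical
  have hV : Finite V := Module.finite_of_finite F
  have hfin : Finite (V ≃ₗ[F] V) := Finite.of_injective (fun g : V ≃ₗ[F] V => (g : V → V)) DFunLike.coe_injective
  obtain ⟨ν, hν0, hν⟩ := exists_nu F
  obtain ⟨x, y, hxy⟩ := hG.exists_hyp
  obtain ⟨z, w, hzw, hxz, hxw, hyz, hyw⟩ := hG.exists_hyp2 hxy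
  have hv : ∀ c : F, Q (x + c • y) = c := by
    intro c
    rw [Q_add, QuadraticMap.map_smul, polar_smul_right, hxy.left, hxy.right, hxy.pair]
    simp
  have hv' : ∀ c : F, Q (z + c • w) = c := by
    intro c
    rw [Q_add, QuadraticMap.map_smul, polar_smul_right, hzw.left, hzw.right, hzw.pair]
    simp
  have h1 : Q (x + (1 : F) • y) ≠ 0 := by rw [hv]; exact one_ne_zero
  have h2 : Q (z + ν • w) ≠ 0 := by rw [hv']; exact hν0
  have hp : polar Q (z + ν • w) (x + (1 : F) • y) = 0 := by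
    rw [polar_comm]
    simp only [polar_add_left, polar_add_right, polar_smul_left, polar_smul_right, hxz, hxw, hyz, hyw]
    simp
  set r := refl Q (x + (1 : F) • y) h1 with hr
  set s := refl Q (z + ν • w) h2 with hs
  have hrr : r * r = 1 := refl_mul_self h1
  have hss : s * s = 1 := refl_mul_self h2
  have hsr : s * r = r * s := refl_comm h2 h1 hp
  let H := four r s hrr hss hsr
  have hrH : r ∈ H := ⟨(true, false), by simp⟩
  have hsH : s ∈ H := ⟨(false, true), by simp⟩
  have hHO : H ≤ O Q := by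
    rintro _ ⟨⟨a, b⟩, rfl⟩
    refine (O Q).mul_mem ?_ ?_
    · cases a
      · exact (O Q).one_mem
      · exact refl_mem_O h1
    · cases b
      · exact (O Q).one_mem
      · exact refl_mem_O h2
  have key : ∀ g : O Q, ∃ h ∈ H, h * (g : V ≃ₗ[F] V) ∈ E Q := by
    intro g
    refine Cfsg.Agent.H105.SzO.adjust hG hHO (fun z' hz' => ?_) g.2
    obtain ⟨c, hc0, hc⟩ := hν _ hz'
    have hsm : Q (c⁻¹ • z') = (c⁻¹ * c⁻¹) * Q z' := by rw [QuadraticMap.map_smul, smul_eq_mul]
    have hne : Q (c⁻¹ • z') ≠ 0 := by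
      rw [hsm]
      exact mul_ne_zero (mul_ne_zero (inv_ne_zero hc0) (inv_ne_zero hc0)) hz'
    rw [← refl_smul hz' (inv_ne_zero hc0) hne]
    rcases hc with hc | hc
    · refine ⟨r, hrH, hG.refl_mul_refl_mem hne h1 ?_⟩
      rw [hsm, hc, hv]
      field_simp
    · refine ⟨s, hsH, hG.refl_mul_refl_mem hne h2 ?_⟩
      rw [hsm, hc, hv']
      field_simp
  choose h hH hE using key
  have h3 : Nat.card (O Q) ≤ Nat.card (H × E Q) := by
    refine Nat.card_le_card_of_injective (fun g => (⟨h g, hH g⟩, ⟨h g * g, hE g⟩)) ?_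
    intro a b hab
    have e1 : h a = h b := congrArg (fun p : H × E Q => (p.1 : V ≃ₗ[F] V)) hab
    have e2 : h a * a = h b * b := congrArg (fun p : H × E Q => (p.2 : V ≃ₗ[F] V)) hab
    rw [e1] at e2
    exact Subtype.ext (mul_left_cancel e2)
  rw [Nat.card_prod] at h3
  exact h3.trans (Nat.mul_le_mul_right _ (card_four r s hrr hss hsr))

end Cfsg.Agent.H888.Rx
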