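import Cfsg.Agent.H847.Ux.Norm
import Cfsg.Agent.H262.Rx.Red4
import Cfsg.Agent.H888.Rx.Idx

/-!
# S5716, reducible part, orthogonal groups: the counts (helper888)

* `orb1`, `orb2` : lower bounds for the orbits of `O Q` on vectors, and of the stabiliser of a vector;
* `ker_count` : the number of translates of `W` in the kernel of a functional.
-/

set_option autoImplicit false
set_option linter.unusedSectionVars false

namespace Cfsg.Agent.H888.Rx

open Module QuadraticMap Cfsg.Agent.LieClassical.OrthCore Cfsg.Agent.LieClassical.OrthTrans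
open Cfsg.Agent.LieClassical.OrthFinite Cfsg.Agent.H847.Bs Cfsg.Agent.H847.Ux
open Cfsg.Agent.H262.Rx (sOrb card_ker_le)

variable {F V : Type*} [Field F] [AddCommGroup V] [Module F V]

/-- the action of `O Q` -/
def oAct (Q : QuadraticForm F V) : O Q →* (V →ₗ[F] V) where
  toFun g := ((g : V ≃ₗ[F] V) : V →ₗ[F] V)
  map_one' := rfl
  map_mul' _ _ := rfl

theorem oAct_apply {Q : QuadraticForm F V} (g : O Q) (v : V) : oAct Q g v = (g : V ≃ₗ[F] V) v := rfl

theorem klq {Q : QuadraticForm F V} (hQ : Nondeg Q) : Kl (frmQ Q) (E Q) (Nat.card F) :=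
  Or.inr (Or.inr ⟨Q, hQ, rfl, rfl, rfl⟩)

theorem polar_O {Q : QuadraticForm F V} {g : V ≃ₗ[F] V} (hg : g ∈ O Q) (v w : V) :
    polar Q (g v) (g w) = polar Q v w := Cfsg.Agent.LieClassical.OrthCore.polar_map hg v w

theorem finV (F V : Type*) [Field F] [AddCommGroup V] [Module F V] [Finite F] [Module.Finite F V] : Finite V :=
  Module.finite_of_finite F

theorem finGL (F V : Type*) [Field F] [AddCommGroup V] [Module F V] [Finite F] [Module.Finite F V] :
    Finite (V ≃ₗ[F] V) := by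
  have := finV F V
  exact Finite.of_injective (fun g : V ≃ₗ[F] V => (g : V → V)) DFunLike.coe_injective

theorem card_V (F V : Type*) [Field F] [AddCommGroup V] [Module F V] [Finite F] [Module.Finite F V] :
    Nat.card V = Nat.card F ^ finrank F V := Module.natCard_eq_pow_finrank

/-- orbits of vectors -/
theorem orb1 [Finite F] [Module.Finite F V] {Q : QuadraticForm F V} (hQ : Nondeg Q) (h5 : 5 ≤ finrank F V) {v : V}
    (hv : v ≠ 0) : Nat.card F ^ (finrank F V - 1) ≤ 2 * Nat.card (Set.range fun y : O Q => oAct Q y v) := by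
  have := finV F V
  have h1 := n4' (klq hQ) h5 hv
  have h2 : Nat.card {p : V // ∃ g ∈ E Q, p = g v} ≤ Nat.card (Set.range fun y : O Q => oAct Q y v) := by
    refine Nat.card_mono (Set.toFinite _) ?_
    rintro p ⟨g, hg, rfl⟩
    exact ⟨⟨g, E_le_O hg⟩, rfl⟩
  have h3 : Nat.card V = Nat.card F * Nat.card F ^ (finrank F V - 1) := by
    rw [card_V F V, ← pow_succ']
    congr 1
    omega
  have hF : 0 < Nat.card F := Nat.card_pos
  refine le_trans ?_ (Nat.mul_le_mul_left 2 h2)
  rw [h3] at h1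
  refine Nat.le_of_mul_le_mul_left (le_trans h1 (le_of_eq ?_)) hF
  ring

/-- orbits of the stabiliser of a vector -/
theorem orb2 [Finite F] [Module.Finite F V] {Q : QuadraticForm F V} (hQ : Nondeg Q) (h5 : 5 ≤ finrank F V) {v u : V}
    (hv : v ≠ 0) (hu : ¬ ∃ l : F, u = l • v) :
    Nat.card F ^ (finrank F V - 2) ≤ 2 * Nat.card (sOrb (oAct Q) v u) := by
  have := finV F V
  obtain ⟨e, he, hee, hqe, hev⟩ := exists_iso (klq hQ) (k := 1) (by omega) ![v]
  have hr : Set.range ![v] = {v} := by simp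
  rw [hr] at he
  have hev0 : (frmQ Q).B e v = 0 := hev 0
  have h1 := many2 (klq hQ) hv he hev0 hee hqe u ((frmQ Q).B u v)
  have hind : ∀ w : V, (¬ ∃ l : F, w = l • v) → LinearIndependent F ![v, w] := by
    intro w hw
    rw [LinearIndependent.pair_iff' hv]
    intro a ha
    exact hw ⟨a, ha.symm⟩
  have h2 : Nat.card {x : V // ((frmQ Q).B x v = (frmQ Q).B u v ∧ (frmQ Q).B x e ≠ 0) ∧
      (frmQ Q).B x x = (frmQ Q).B u u ∧ (frmQ Q).q x = (frmQ Q).q u} ≤ Nat.card (sOrb (oAct Q) v u) := by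
    refine Nat.card_mono (Set.toFinite _) ?_
    rintro x ⟨⟨hxv, hxe⟩, hxx, hqx⟩
    have hx : ¬ ∃ l : F, x = l • v := by
      rintro ⟨l, rfl⟩
      apply hxe
      rw [(frmQ Q).smul_left, (frmQ Q).refl _ _ hev0, mul_zero]
    have hxv' : polar Q v x = polar Q v u := by
      rw [polar_comm Q v x, polar_comm Q v u]
      exact hxv
    obtain ⟨g, hg, hgx⟩ := Cfsg.Agent.ClassicalGeometry.WittQuad.extend_family Q (nondegenerate_of_nondeg hQ) 2
      ![v, u] ![v, x] (hind u hu) (hind x hx)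
      (by
        intro i
        fin_cases i
        · rfl
        · exact hqx.symm)
      (by
        intro i j
        fin_cases i <;> fin_cases j
        · rfl
        · exact hxv'.symm
        · exact hxv.symm
        · exact hxx.symm)
    exact ⟨⟨g, hg⟩, hgx 0, hgx 1⟩
  have h3 : Nat.card V = Nat.card F * Nat.card F * Nat.card F ^ (finrank F V - 2) := by
    rw [card_V F V, ← pow_two, ← pow_add]
    congr 1
    omega
  have hF : 0 < Nat.card F * Nat.card F := Nat.mul_pos Nat.card_pos Nat.card_pos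
  refine le_trans ?_ (Nat.mul_le_mul_left 2 h2)
  rw [h3] at h1
  refine Nat.le_of_mul_le_mul_left (le_trans h1 (le_of_eq ?_)) hF
  ring

/-- functionals are `polar Q u` -/
theorem exists_rep [Module.Finite F V] {Q : QuadraticForm F V} (hQ : Nondeg Q) (c : V →ₗ[F] F) :
    ∃ u, ∀ v, c v = polar Q u v := by
  have hinj : Function.Injective (polarBilin Q) := by
    rw [← LinearMap.ker_eq_bot, LinearMap.ker_eq_bot']
    intro x hx
    exact hQ x fun y => LinearMap.congr_fun hx y
  have hd : finrank F V = finrank F (V →ₗ[F] F) := by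
    rw [Module.finrank_linearMap, finrank_self, mul_one]
  obtain ⟨u, hu⟩ := (LinearMap.injective_iff_surjective_of_finrank_eq_finrank hd).1 hinj c
  exact ⟨u, fun v => by rw [← hu]; rfl⟩

/-- **hypothesis (3)** -/
theorem ker_count [Finite F] [Module.Finite F V] {Q : QuadraticForm F V} (hQ : Nondeg Q) (h5 : 5 ≤ finrank F V)
    {k : ℕ} (hk : 2 * k ≤ finrank F V) {W : Submodule F V} (hW : finrank F W = k) {c : V →ₗ[F] F} (hc : c ≠ 0) :
    (Nat.card {y : O Q // W.map (oAct Q y) ≤ LinearMap.ker c} : ℝ) ≤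
      (4 / (Nat.card F : ℝ) ^ k + 2 * (Nat.card F : ℝ) ^ (finrank F V / 2 + 2) / (Nat.card F : ℝ) ^ finrank F V) *
        Nat.card (O Q) := by
  classical
  have hfV := finV F V
  have hfG := finGL F V
  have hfL : Finite (V →ₗ[F] F) := DFunLike.finite _
  obtain ⟨u, hu⟩ := exists_rep hQ c
  have hu0 : u ≠ 0 := by
    rintro rfl
    apply hc
    ext v
    rw [hu, polar_zero_left, LinearMap.zero_apply]
  have hB := nondegenerate_of_nondeg hQ
  have hr : (polarBilin Q).IsRefl := fun x y h => by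
    have h' : polar Q x y = 0 := h
    show polar Q y x = 0
    rw [polar_comm]
    exact h'
  set n := finrank F V with hn
  set R := LinearMap.BilinForm.orthogonal (polarBilin Q) W with hR
  have hRd : finrank F R = n - k := by rw [hR, LinearMap.BilinForm.finrank_orthogonal hB, hW]
  have hRm : ∀ p, p ∈ R ↔ ∀ w ∈ W, polar Q w p = 0 := fun p => LinearMap.BilinForm.mem_orthogonal_iff
  -- the functionals
  have hcomp : ∀ y : O Q, ∀ v, (c ∘ₗ oAct Q y) v = polar Q (((y⁻¹ : O Q) : V ≃ₗ[F] V) u) v := by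
    intro y v
    rw [LinearMap.comp_apply, hu, oAct_apply]
    have h1 := polar_O (Q := Q) (y⁻¹ : O Q).2 u ((y : V ≃ₗ[F] V) v)
    rw [← h1]
    congr 1
    show ((y⁻¹ * y : O Q) : V ≃ₗ[F] V) v = v
    rw [inv_mul_cancel]
    rfl
  have hinj : ∀ p p' : V, (∀ v, polar Q p v = polar Q p' v) → p = p' := by
    intro p p' h
    rw [← sub_eq_zero]
    apply hQ
    intro v
    rw [polar_sub_left, h, sub_self]
  have h1 := card_ker_le (oAct Q) W c
  have hrange : Nat.card F ^ (n - 1) ≤ 2 * Nat.card (Set.range fun y : O Q => c ∘ₗ oAct Q y) := by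
    refine (orb1 hQ h5 hu0).trans (Nat.mul_le_mul_left _ ?_)
    have hch : ∀ p : Set.range fun y : O Q => oAct Q y u, ∃ y : O Q, oAct Q y u = p := fun p => p.2
    choose s hs using hch
    refine Nat.card_le_card_of_injective (fun p => ⟨c ∘ₗ oAct Q (s p)⁻¹, (s p)⁻¹, rfl⟩) ?_
    intro p p' h
    have h' : c ∘ₗ oAct Q (s p)⁻¹ = c ∘ₗ oAct Q (s p')⁻¹ := congrArg Subtype.val h
    apply Subtype.ext
    apply hinj
    intro v
    have e1 := hcomp (s p)⁻¹ v
    have e2 := hcomp (s p')⁻¹ v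
    rw [inv_inv] at e1 e2
    rw [← hs p, ← hs p', oAct_apply, oAct_apply, ← e1, ← e2, h']
  -- the number of functionals vanishing on `W`
  have hT : Nat.card {d : V →ₗ[F] F // (∃ y, d = c ∘ₗ oAct Q y) ∧ W ≤ LinearMap.ker d} ≤
      Nat.card {p : V // p ∈ R ∧ Q p = Q u} := by
    have hch : ∀ d : {d : V →ₗ[F] F // (∃ y, d = c ∘ₗ oAct Q y) ∧ W ≤ LinearMap.ker d}, ∃ y : O Q,
        d.1 = c ∘ₗ oAct Q y := fun d => d.2.1
    choose s hs using hch
    refine Nat.card_le_card_of_injective (fun d => ⟨((((s d)⁻¹ : O Q) : V ≃ₗ[F] V)) u, ?_, ?_⟩) ?_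
    · rw [hRm]
      intro w hw
      rw [polar_comm, ← hcomp, ← hs d]
      exact d.2.2 hw
    · exact ((s d)⁻¹ : O Q).2 u
    · intro d d' h
      have h' : (((s d)⁻¹ : O Q) : V ≃ₗ[F] V) u = (((s d')⁻¹ : O Q) : V ≃ₗ[F] V) u := congrArg Subtype.val h
      apply Subtype.ext
      ext v
      rw [hs d, hs d', hcomp, hcomp, h']
  set A := Nat.card {y : O Q // W.map (oAct Q y) ≤ LinearMap.ker c} with hA
  set M := Nat.card (Set.range fun y : O Q => c ∘ₗ oAct Q y) with hM
  set T := Nat.card {p : V // p ∈ R ∧ Q p = Q u} with hTd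
  have h2 : A * M ≤ T * Nat.card (O Q) := h1.trans (Nat.mul_le_mul_right _ hT)
  have h3 : A * Nat.card F ^ (n - 1) ≤ 2 * T * Nat.card (O Q) := by
    calc A * Nat.card F ^ (n - 1) ≤ A * (2 * M) := Nat.mul_le_mul_left _ hrange
      _ = 2 * (A * M) := by ring
      _ ≤ 2 * (T * Nat.card (O Q)) := Nat.mul_le_mul_left _ h2
      _ = _ := by ring
  have h4 : A * Nat.card F ^ n ≤ 2 * (Nat.card F * T) * Nat.card (O Q) := by
    have e : Nat.card F ^ n = Nat.card F * Nat.card F ^ (n - 1) := by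
      rw [← pow_succ']
      congr 1
      omega
    calc A * Nat.card F ^ n = Nat.card F * (A * Nat.card F ^ (n - 1)) := by rw [e]; ring
      _ ≤ Nat.card F * (2 * T * Nat.card (O Q)) := Nat.mul_le_mul_left _ h3
      _ = _ := by ring
  have hcR : Nat.card R = Nat.card F ^ (n - k) := by
    have : Nat.card R = Nat.card F ^ finrank F R := Module.natCard_eq_pow_finrank
    rw [this, hRd]
  have hF0 : (0 : ℝ) < Nat.card F := by exact_mod_cast (Nat.card_pos : 0 < Nat.card F)
  have hF1 : (1 : ℝ) ≤ Nat.card F := by exact_mod_cast (Nat.card_pos : 0 < Nat.card F)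
  have hO : (0 : ℝ) ≤ Nat.card (O Q) := Nat.cast_nonneg _
  have h4' : (A : ℝ) * (Nat.card F : ℝ) ^ n ≤ 2 * ((Nat.card F : ℝ) * T) * Nat.card (O Q) := by exact_mod_cast h4
  by_cases hcase : ∃ p ∈ R, Q p ≠ 0
  · obtain ⟨p, hpR, hp⟩ := hcase
    have h5' := n2q (klq hQ) R hpR (Or.inr (Or.inr hp)) 0 ((frmQ Q).B u u) (Q u)
    have h6 : T ≤ Nat.card {w : V // w - 0 ∈ R ∧ (frmQ Q).B w w = (frmQ Q).B u u ∧ (frmQ Q).q w = Q u} := by
      refine Nat.card_mono (Set.toFinite _) ?_
      rintro w ⟨hw, hqw⟩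
      refine ⟨by rw [sub_zero]; exact hw, ?_, hqw⟩
      show polar Q w w = polar Q u u
      rw [Cfsg.Agent.LieClassical.OrthCore.polar_self', Cfsg.Agent.LieClassical.OrthCore.polar_self', hqw]
    have h7 : Nat.card F * T ≤ 2 * Nat.card F ^ (n - k) := by
      rw [← hcR]
      exact (Nat.mul_le_mul_left _ h6).trans h5'
    have h7' : (Nat.card F : ℝ) * T ≤ 2 * (Nat.card F : ℝ) ^ (n - k) := by exact_mod_cast h7
    have h8 : (A : ℝ) ≤ 4 / (Nat.card F : ℝ) ^ k * Nat.card (O Q) := by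
      rw [div_mul_eq_mul_div, le_div_iff₀ (by positivity)]
      have e : (Nat.card F : ℝ) ^ n = (Nat.card F : ℝ) ^ (n - k) * (Nat.card F : ℝ) ^ k := by
        rw [← pow_add]
        congr 1
        omega
      have hpos : (0 : ℝ) < (Nat.card F : ℝ) ^ (n - k) := by positivity
      have h9 : (Nat.card F : ℝ) ^ (n - k) * ((A : ℝ) * (Nat.card F : ℝ) ^ k) ≤
          (Nat.card F : ℝ) ^ (n - k) * (4 * Nat.card (O Q)) := by
        calc _ = (A : ℝ) * (Nat.card F : ℝ) ^ n := by rw [e]; ring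
          _ ≤ 2 * ((Nat.card F : ℝ) * T) * Nat.card (O Q) := h4'
          _ ≤ 2 * (2 * (Nat.card F : ℝ) ^ (n - k)) * Nat.card (O Q) :=
              mul_le_mul_of_nonneg_right (mul_le_mul_of_nonneg_left h7' (by norm_num)) hO
          _ = _ := by ring
      exact le_of_mul_le_mul_left h9 hpos
    refine h8.trans (mul_le_mul_of_nonneg_right ?_ hO)
    have : 0 ≤ 2 * (Nat.card F : ℝ) ^ (n / 2 + 2) / (Nat.card F : ℝ) ^ n := by positivity
    linarith
  · push Not at hcase
    -- `R` is totally singular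
    have hRR : R ≤ W := by
      have h6 : R ≤ LinearMap.BilinForm.orthogonal (polarBilin Q) R := by
        intro p hp
        rw [LinearMap.BilinForm.mem_orthogonal_iff]
        intro p' hp'
        show polar Q p' p = 0
        rw [polar, hcase _ (R.add_mem hp' hp), hcase _ hp', hcase _ hp, sub_zero, sub_zero]
      rwa [hR, LinearMap.BilinForm.orthogonal_orthogonal hB hr] at h6
    have h6 : n - k ≤ k := by rw [← hRd, ← hW]; exact Submodule.finrank_mono hRR
    have h7 : T ≤ Nat.card F ^ (n - k) := by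
      rw [← hcR]
      exact Nat.card_mono (Set.toFinite _) fun p hp => hp.1
    have h7' : (T : ℝ) ≤ (Nat.card F : ℝ) ^ (n - k) := by exact_mod_cast h7
    have h8 : (A : ℝ) ≤ 2 * (Nat.card F : ℝ) ^ (n / 2 + 2) / (Nat.card F : ℝ) ^ n * Nat.card (O Q) := by
      rw [div_mul_eq_mul_div, le_div_iff₀ (by positivity)]
      refine h4'.trans (mul_le_mul_of_nonneg_right ?_ hO)
      have e : n - k = n / 2 := by omega
      rw [e] at h7'
      calc 2 * ((Nat.card F : ℝ) * T) ≤ 2 * ((Nat.card F : ℝ) * (Nat.card F : ℝ) ^ (n / 2)) :=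
            mul_le_mul_of_nonneg_left (mul_le_mul_of_nonneg_left h7' hF0.le) (by norm_num)
        _ ≤ 2 * ((Nat.card F : ℝ) ^ (n / 2 + 2)) := by
            refine mul_le_mul_of_nonneg_left ?_ (by norm_num)
            rw [← pow_succ']
            exact pow_le_pow_right₀ hF1 (by omega)
    refine h8.trans (mul_le_mul_of_nonneg_right ?_ hO)
    have : 0 ≤ 4 / (Nat.card F : ℝ) ^ k := by positivity
    linarith

end Cfsg.Agent.H888.Rx
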