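import Cfsg.Agent.H888.Rx.Cnt

/-!
# S5716, reducible part, orthogonal groups: normal forms of nondegenerate subspaces (helper888)

* `NF Q s c k b` : `b` consists of hyperbolic pairs, followed by `a` with `Q a = s` (`k` odd) or by `a, a'` with `Q a = s`,
  `B(a, a') = 1`, `Q a' = c` (`k` even);
* `NF_gram` : the Gram matrix is determined;
* `exists_NF` : nondegenerate subspaces have such a basis;
* `trans_of_gram` : Witt's theorem for subspaces with bases.
-/

set_option autoImplicit false
set_option linter.unusedSectionVars false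

namespace Cfsg.Agent.H888.Rx

open Module QuadraticMap Cfsg.Agent.LieClassical.OrthCore Cfsg.Agent.LieClassical.OrthTrans
open Cfsg.Agent.LieClassical.OrthFinite Cfsg.Agent.H847.Bs Cfsg.Agent.H847.Ux

variable {F V : Type*} [Field F] [AddCommGroup V] [Module F V]

/-- normal form of a basis of a nondegenerate space -/
def NF (Q : QuadraticForm F V) (s c : F) : (k : ℕ) → (Fin k → V) → Prop
  | 0, _ => True
  | 1, b => Q (b 0) = s
  | 2, b => Q (b 0) = s ∧ polar Q (b 0) (b (Fin.succ 0)) = 1 ∧ Q (b (Fin.succ 0)) = c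
  | (k + 3), b => Q (b 0) = 0 ∧ Q (b (Fin.succ 0)) = 0 ∧ polar Q (b 0) (b (Fin.succ 0)) = 1 ∧
      (∀ i : Fin (k + 1), polar Q (b 0) (b i.succ.succ) = 0) ∧
      (∀ i : Fin (k + 1), polar Q (b (Fin.succ 0)) (b i.succ.succ) = 0) ∧ NF Q s c (k + 1) (fun i => b i.succ.succ)

theorem pself {Q : QuadraticForm F V} (u : V) : polar Q u u = 2 * Q u :=
  Cfsg.Agent.LieClassical.OrthCore.polar_self' u

/-- the Gram matrix of a normal form -/
theorem NF_gram {Q : QuadraticForm F V} {s c : F} : ∀ (k : ℕ) (b b' : Fin k → V), NF Q s c k b → NF Q s c k b' →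
    (∀ i, Q (b i) = Q (b' i)) ∧ ∀ i j, polar Q (b i) (b j) = polar Q (b' i) (b' j)
  | 0, _, _, _, _ => ⟨fun i => i.elim0, fun i => i.elim0⟩
  | 1, b, b', h, h' => by
    have h1 : Q (b 0) = s := h
    have h2 : Q (b' 0) = s := h'
    have h3 : ∀ i : Fin 1, Q (b i) = Q (b' i) := by
      intro i
      rw [Subsingleton.elim i 0, h1, h2]
    refine ⟨h3, fun i j => ?_⟩
    rw [Subsingleton.elim j i, pself, pself, h3]
  | 2, b, b', ⟨h1, h2, h3⟩, ⟨h1', h2', h3'⟩ => by
    have h4 : ∀ i, Q (b i) = Q (b' i) := by
      intro i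
      fin_cases i
      · exact h1.trans h1'.symm
      · exact h3.trans h3'.symm
    refine ⟨h4, fun i j => ?_⟩
    fin_cases i <;> fin_cases j
    · show polar Q (b 0) (b 0) = polar Q (b' 0) (b' 0)
      rw [pself, pself, h4]
    · exact h2.trans h2'.symm
    · show polar Q (b (Fin.succ 0)) (b 0) = polar Q (b' (Fin.succ 0)) (b' 0)
      rw [polar_comm, h2, polar_comm, h2']
    · show polar Q (b (Fin.succ 0)) (b (Fin.succ 0)) = polar Q (b' (Fin.succ 0)) (b' (Fin.succ 0))
      rw [pself, pself, h4]
  | (k + 3), b, b', ⟨h1, h2, h3, h4, h5, h6⟩, ⟨h1', h2', h3', h4', h5', h6'⟩ => by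
    obtain ⟨h7, h8⟩ := NF_gram (k + 1) _ _ h6 h6'
    have h9 : ∀ i, Q (b i) = Q (b' i) := by
      intro i
      refine Fin.cases ?_ (fun i => ?_) i
      · rw [h1, h1']
      · refine Fin.cases ?_ (fun i => ?_) i
        · rw [h2, h2']
        · exact h7 i
    refine ⟨h9, fun i j => ?_⟩
    refine Fin.cases ?_ (fun i => ?_) i
    · refine Fin.cases ?_ (fun j => ?_) j
      · rw [pself, pself, h9]
      · refine Fin.cases ?_ (fun j => ?_) j
        · rw [h3, h3']
        · rw [h4, h4']
    · refine Fin.cases ?_ (fun i => ?_) i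
      · refine Fin.cases ?_ (fun j => ?_) j
        · rw [polar_comm, h3, polar_comm, h3']
        · refine Fin.cases ?_ (fun j => ?_) j
          · rw [pself, pself, h9]
          · rw [h5, h5']
      · refine Fin.cases ?_ (fun j => ?_) j
        · rw [polar_comm, h4, polar_comm, h4']
        · refine Fin.cases ?_ (fun j => ?_) j
          · rw [polar_comm, h5, polar_comm, h5']
          · exact h8 i j

/-- Witt's theorem for subspaces with bases -/
theorem trans_of_gram [Module.Finite F V] {Q : QuadraticForm F V} (hQ : Nondeg Q) {k : ℕ} {b b' : Fin k → V}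
    (hb : LinearIndependent F b) (hb' : LinearIndependent F b') (h1 : ∀ i, Q (b i) = Q (b' i))
    (h2 : ∀ i j, polar Q (b i) (b j) = polar Q (b' i) (b' j)) :
    ∃ y : O Q, (Submodule.span F (Set.range b)).map (oAct Q y) = Submodule.span F (Set.range b') := by
  obtain ⟨g, hg, hgb⟩ := Cfsg.Agent.ClassicalGeometry.WittQuad.extend_family Q (nondegenerate_of_nondeg hQ) k b b' hb
    hb' h1 h2
  refine ⟨⟨g, hg⟩, ?_⟩
  rw [Submodule.map_span, ← Set.range_comp]
  congr 1
  congr 1
  funext i
  exact hgb i

theorem span_eq_of_li [Module.Finite F V] {k : ℕ} {b : Fin k → V} (hb : LinearIndependent F b) {W : Submodule F V}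
    (hW : finrank F W = k) (h : ∀ i, b i ∈ W) : Submodule.span F (Set.range b) = W := by
  apply Submodule.eq_of_le_of_finrank_eq
  · rw [Submodule.span_le]
    rintro _ ⟨i, rfl⟩
    exact h i
  · rw [finrank_span_eq_card hb, Fintype.card_fin, hW]

/-- a basis of a subspace -/
theorem exists_li [Module.Finite F V] {k : ℕ} {W : Submodule F V} (hW : finrank F W = k) :
    ∃ b : Fin k → V, LinearIndependent F b ∧ Submodule.span F (Set.range b) = W := by
  let B := Module.finBasisOfFinrankEq F W hW
  have h1 : LinearIndependent F (fun i => (B i : V)) :=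
    B.linearIndependent.map' W.subtype (Submodule.ker_subtype W)
  exact ⟨fun i => (B i : V), h1, span_eq_of_li h1 hW fun i => (B i).2⟩

/-- scaled nonsingular vectors -/
theorem exists_scaled {Q : QuadraticForm F V} {ν : F} (hν : ∀ a : F, a ≠ 0 → ∃ c : F, c ≠ 0 ∧ (a = c ^ 2 ∨ a = ν * c ^ 2))
    {W : Submodule F V} (hW : ∃ a ∈ W, Q a ≠ 0) : ∃ a ∈ W, Q a ≠ 0 ∧ (Q a = 1 ∨ Q a = ν) := by
  obtain ⟨a, haW, ha⟩ := hW
  obtain ⟨c, hc0, hc⟩ := hν _ ha
  have hsm : Q (c⁻¹ • a) = (c⁻¹ * c⁻¹) * Q a := by rw [QuadraticMap.map_smul, smul_eq_mul]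
  refine ⟨c⁻¹ • a, W.smul_mem _ haW, ?_, ?_⟩
  · rw [hsm]
    exact mul_ne_zero (mul_ne_zero (inv_ne_zero hc0) (inv_ne_zero hc0)) ha
  · rcases hc with hc | hc
    · left
      rw [hsm, hc]
      field_simp
    · right
      rw [hsm, hc]
      field_simp

theorem nonsing_of_nd {Q : QuadraticForm F V} {W : Submodule F V}
    (hW : (frmQ Q).NdOn W) (h0 : W ≠ ⊥) : ∃ a ∈ W, Q a ≠ 0 := by
  by_contra hcon
  push Not at hcon
  obtain ⟨x, hx, hx0⟩ := Submodule.exists_mem_ne_zero_of_ne_bot h0
  apply hx0
  refine hW x hx fun y hy => ?_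
  show polar Q x y = 0
  rw [polar, hcon _ (W.add_mem hx hy), hcon _ hx, hcon _ hy, sub_zero, sub_zero]

/-- **normal forms** -/
theorem exists_NF [Finite F] [Module.Finite F V] {Q : QuadraticForm F V} {ν : F}
    (hν : ∀ a : F, a ≠ 0 → ∃ c : F, c ≠ 0 ∧ (a = c ^ 2 ∨ a = ν * c ^ 2)) (k : ℕ) (hk : 1 ≤ k) :
    ∀ W : Submodule F V, finrank F W = k → (frmQ Q).NdOn W → ∃ s c : F, (s = 1 ∨ s = ν) ∧ (Even k ∨ c = 0) ∧
      ∃ b : Fin k → V, NF Q s c k b ∧ LinearIndependent F b ∧ Submodule.span F (Set.range b) = W := by
  induction k using Nat.strong_induction_on with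
  | _ k ih =>
    intro W hW hnd
    have h0 : W ≠ ⊥ := by
      rintro rfl
      rw [finrank_bot] at hW
      omega
    obtain ⟨a, haW, ha0, ha⟩ := exists_scaled hν (nonsing_of_nd hnd h0)
    have hane : a ≠ 0 := by
      rintro rfl
      exact ha0 (QuadraticMap.map_zero Q)
    match k, hk, hW with
    | 1, _, hW =>
      have hli : LinearIndependent F ![a] := LinearIndependent.of_subsingleton (v := ![a]) 0 hane
      refine ⟨Q a, 0, ha, Or.inr rfl, ![a], rfl, hli, span_eq_of_li hli hW fun i => ?_⟩
      rw [Subsingleton.elim i 0]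
      exact haW
    | 2, _, hW =>
      -- a vector `a'` with `B(a, a') = 1`, outside of the line
      have h1 : ∃ y ∈ W, polar Q a y = 1 := by
        by_contra hcon
        push Not at hcon
        apply hane
        refine hnd a haW fun y hy => ?_
        by_contra h
        have h' : polar Q a y ≠ 0 := h
        apply hcon ((polar Q a y)⁻¹ • y) (W.smul_mem _ hy)
        rw [polar_smul_right, smul_eq_mul, inv_mul_cancel₀ h']
      obtain ⟨y, hyW, hy⟩ := h1
      have h2 : ∃ y ∈ W, polar Q a y = 1 ∧ y ∉ Submodule.span F {a} := by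
        by_cases hys : y ∈ Submodule.span F {a}
        · have h3 : ¬ W ≤ Submodule.span F {a} := by
            intro hle
            have h4 := Submodule.finrank_mono hle
            rw [hW, finrank_span_singleton hane] at h4
            omega
          obtain ⟨y', hy'W, hy'⟩ := Set.not_subset.1 h3
          refine ⟨y' + (1 - polar Q a y') • y, W.add_mem hy'W (W.smul_mem _ hyW), ?_, fun h => hy' ?_⟩
          · rw [polar_add_right, polar_smul_right, hy, smul_eq_mul, mul_one]
            ring
          · have h5 := Submodule.sub_mem _ h (Submodule.smul_mem _ (1 - polar Q a y') hys)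
            rwa [add_sub_cancel_right] at h5
        · exact ⟨y, hyW, hy, hys⟩
      obtain ⟨y', hy'W, hy', hys⟩ := h2
      have hli : LinearIndependent F ![a, y'] := by
        rw [LinearIndependent.pair_iff' hane]
        intro t ht
        exact hys (Submodule.mem_span_singleton.2 ⟨t, ht⟩)
      refine ⟨Q a, Q y', ha, Or.inl (by decide), ![a, y'], ⟨rfl, hy', rfl⟩, hli, span_eq_of_li hli hW fun i => ?_⟩
      fin_cases i
      · exact haW
      · exact hy'W
    | (m + 3), _, hW =>
      obtain ⟨e, heW, he0, he⟩ := exists_sing_mem (Q := Q) W (by omega)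
      have h1 : ∃ y ∈ W, polar Q e y = 1 := by
        by_contra hcon
        push Not at hcon
        apply he0
        refine hnd e heW fun y hy => ?_
        by_contra h
        have h' : polar Q e y ≠ 0 := h
        apply hcon ((polar Q e y)⁻¹ • y) (W.smul_mem _ hy)
        rw [polar_smul_right, smul_eq_mul, inv_mul_cancel₀ h']
      obtain ⟨y, hyW, hy⟩ := h1
      have hf : ∃ f ∈ W, Q f = 0 ∧ polar Q e f = 1 := by
        refine ⟨y + (-Q y) • e, W.add_mem hyW (W.smul_mem _ heW), ?_, ?_⟩
        · rw [Q_add, QuadraticMap.map_smul, he, polar_smul_right, polar_comm Q y e, hy]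
          simp
        · rw [polar_add_right, polar_smul_right, hy, polar_self_of_sing he, smul_zero, add_zero]
      obtain ⟨f, hfW, hf0, hef⟩ := hf
      have hee : polar Q e e = 0 := polar_self_of_sing he
      have hff : polar Q f f = 0 := polar_self_of_sing hf0
      have hfe : polar Q f e = 1 := by rw [polar_comm]; exact hef
      let g : W →ₗ[F] F × F := ((polarBilin Q e).comp W.subtype).prod ((polarBilin Q f).comp W.subtype)
      let W' : Submodule F V := W ⊓ (LinearMap.ker (polarBilin Q e) ⊓ LinearMap.ker (polarBilin Q f))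
      have hW'm : ∀ v, v ∈ W' ↔ v ∈ W ∧ polar Q e v = 0 ∧ polar Q f v = 0 := fun v => Iff.rfl
      have hker : LinearMap.ker g = W'.comap W.subtype := by
        ext v
        rw [LinearMap.mem_ker, Submodule.mem_comap]
        constructor
        · intro h
          exact ⟨v.2, (Prod.ext_iff.1 h).1, (Prod.ext_iff.1 h).2⟩
        · intro h
          exact Prod.ext h.2.1 h.2.2
      have hsurj : LinearMap.range g = ⊤ := by
        rw [LinearMap.range_eq_top]
        rintro ⟨α, β⟩
        refine ⟨α • ⟨f, hfW⟩ + β • ⟨e, heW⟩, Prod.ext ?_ ?_⟩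
        · show polar Q e (α • f + β • e) = α
          rw [polar_add_right, polar_smul_right, polar_smul_right, hef, hee]
          simp
        · show polar Q f (α • f + β • e) = β
          rw [polar_add_right, polar_smul_right, polar_smul_right, hff, hfe]
          simp
      have hdim : finrank F W' = m + 1 := by
        have h2 := LinearMap.finrank_range_add_finrank_ker g
        have h3 : finrank F (W'.comap W.subtype) = finrank F W' :=
          (Submodule.comapSubtypeEquivOfLe (p := W') (q := W) inf_le_left).finrank_eq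
        rw [hsurj, finrank_top, hker, h3, Module.finrank_prod, finrank_self, hW] at h2
        omega
      have hnd' : (frmQ Q).NdOn W' := by
        intro x hx hxy
        obtain ⟨hxW, hxe, hxf⟩ := (hW'm x).1 hx
        refine hnd x hxW fun z hz => ?_
        have h2 : z - (polar Q f z) • e - (polar Q e z) • f ∈ W' := by
          rw [hW'm]
          refine ⟨W.sub_mem (W.sub_mem hz (W.smul_mem _ heW)) (W.smul_mem _ hfW), ?_, ?_⟩
          · rw [polar_sub_right, polar_sub_right, polar_smul_right, polar_smul_right, hee, hef]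
            simp
          · rw [polar_sub_right, polar_sub_right, polar_smul_right, polar_smul_right, hff, hfe]
            simp
        have h3 : polar Q x (z - (polar Q f z) • e - (polar Q e z) • f) = 0 := hxy _ h2
        rw [polar_sub_right, polar_sub_right, polar_smul_right, polar_smul_right, polar_comm Q x e, polar_comm Q x f,
          hxe, hxf, smul_zero, smul_zero, sub_zero, sub_zero] at h3
        exact h3
      obtain ⟨s, c, hs, hc, b, hb, hbl, hbs⟩ := ih (m + 1) (by omega) (by omega) W' hdim hnd'
      have hbW : ∀ i, b i ∈ W' := fun i => hbs ▸ Submodule.subset_span ⟨i, rfl⟩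
      have hli1 : LinearIndependent F (Fin.cons f b : Fin (m + 2) → V) := by
        rw [linearIndependent_finCons]
        refine ⟨hbl, fun h => ?_⟩
        rw [hbs, hW'm] at h
        rw [hef] at h
        exact one_ne_zero h.2.1
      have hli2 : LinearIndependent F (Fin.cons e (Fin.cons f b : Fin (m + 2) → V) : Fin (m + 3) → V) := by
        rw [linearIndependent_finCons]
        refine ⟨hli1, fun h => ?_⟩
        have h2 : Submodule.span F (Set.range (Fin.cons f b : Fin (m + 2) → V)) ≤ LinearMap.ker (polarBilin Q f) := by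
          rw [Submodule.span_le]
          rintro _ ⟨i, rfl⟩
          refine Fin.cases ?_ (fun i => ?_) i
          · exact hff
          · exact ((hW'm _).1 (hbW i)).2.2
        have h3 : polar Q f e = 0 := h2 h
        rw [hfe] at h3
        exact one_ne_zero h3
      refine ⟨s, c, hs, ?_, Fin.cons e (Fin.cons f b : Fin (m + 2) → V), ⟨he, hf0, hef, fun i => ?_, fun i => ?_, ?_⟩,
        hli2, span_eq_of_li hli2 hW fun i => ?_⟩
      · rcases hc with hc | hc
        · left
          have : m + 3 = (m + 1) + 2 := by ring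
          rw [this]
          exact hc.add (by decide)
        · exact Or.inr hc
      · exact ((hW'm _).1 (hbW i)).2.1
      · exact ((hW'm _).1 (hbW i)).2.2
      · exact hb
      · refine Fin.cases ?_ (fun i => ?_) i
        · exact heW
        · refine Fin.cases ?_ (fun i => ?_) i
          · exact hfW
          · exact ((hW'm _).1 (hbW i)).1

end Cfsg.Agent.H888.Rx
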