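import Cfsg.Agent.H888.Rx.Kind
import Cfsg.Agent.H141.Ux.Defs

/-!
# S5716, reducible part: orthogonal groups (helper888)

* `red_om` : the number of `z ∈ E Q` having a common invariant subspace with the non-scalar `x ∈ E Q`;
* `ur_om` : the same in the language of `H141.Ux` (the orthogonal part of `UR2`).
-/

set_option autoImplicit false
set_option linter.unusedSectionVars false

namespace Cfsg.Agent.H888.Rx

open Module QuadraticMap Cfsg.Agent.LieClassical.OrthCore Cfsg.Agent.LieClassical.OrthTrans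
open Cfsg.Agent.LieClassical.OrthFinite Cfsg.Agent.H847.Bs Cfsg.Agent.H847.Ux
open Cfsg.Agent.H262.Rx (sOrb Red red_of_kinds cover_bilin map_eq_of_le)

section

variable {F V : Type} [Field F] [AddCommGroup V] [Module F V]

/-- the kinds of `k`-dimensional subspaces -/
def Kd (F : Type) [Field F] (ν : F) (k : ℕ) : Type := Option {p : F × F // (p.1 = 1 ∨ p.1 = ν) ∧ (Even k ∨ p.2 = 0)}

noncomputable instance fintypeKd (ν : F) (k : ℕ) [Finite F] : Fintype (Kd F ν k) := by
  classical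
  unfold Kd
  exact Fintype.ofFinite _

/-- `W` is of the given kind -/
def IsKd (Q : QuadraticForm F V) (ν : F) (k : ℕ) : Kd F ν k → Submodule F V → Prop
  | none, W => ∀ v ∈ W, Q v = 0
  | some p, W => ∃ b : Fin k → V, NF Q p.1.1 p.1.2 k b ∧ LinearIndependent F b ∧ Submodule.span F (Set.range b) = W

theorem card_kd [Finite F] (ν : F) (k : ℕ) :
    Nat.card (Kd F ν k) ≤ 1 + 2 * Nat.card F ∧ (¬ Even k → Nat.card (Kd F ν k) ≤ 3) := by
  classical
  have h1 : Nat.card (Kd F ν k) = Nat.card {p : F × F // (p.1 = 1 ∨ p.1 = ν) ∧ (Even k ∨ p.2 = 0)} + 1 := by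
    unfold Kd
    exact Finite.card_option
  have h2 : Nat.card {s : F // s = 1 ∨ s = ν} ≤ 2 := by
    have h3 : Nat.card {s : F // s = 1 ∨ s = ν} = Set.ncard ({1, ν} : Set F) := rfl
    rw [h3]
    exact (Set.ncard_insert_le _ _).trans (by rw [Set.ncard_singleton])
  constructor
  · rw [h1, add_comm]
    refine Nat.add_le_add_left ?_ 1
    have h3 : Nat.card {p : F × F // (p.1 = 1 ∨ p.1 = ν) ∧ (Even k ∨ p.2 = 0)} ≤
        Nat.card ({s : F // s = 1 ∨ s = ν} × F) :=
      Nat.card_le_card_of_injective (fun p => (⟨p.1.1, p.2.1⟩, p.1.2)) fun a b hab => by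
        have e1 : a.1.1 = b.1.1 := congrArg (fun t : {s : F // s = 1 ∨ s = ν} × F => (t.1 : F)) hab
        have e2 : a.1.2 = b.1.2 := congrArg (fun t : {s : F // s = 1 ∨ s = ν} × F => t.2) hab
        exact Subtype.ext (Prod.ext e1 e2)
    rw [Nat.card_prod] at h3
    exact h3.trans (Nat.mul_le_mul_right _ h2)
  · intro hk
    rw [h1]
    have h3 : Nat.card {p : F × F // (p.1 = 1 ∨ p.1 = ν) ∧ (Even k ∨ p.2 = 0)} ≤ Nat.card {s : F // s = 1 ∨ s = ν} :=
      Nat.card_le_card_of_injective (fun p => ⟨p.1.1, p.2.1⟩) fun a b hab => by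
        have e1 : a.1.1 = b.1.1 := congrArg (fun t : {s : F // s = 1 ∨ s = ν} => (t : F)) hab
        have e2 : a.1.2 = b.1.2 := (a.2.2.resolve_left hk).trans (b.2.2.resolve_left hk).symm
        exact Subtype.ext (Prod.ext e1 e2)
    omega

/-- transitivity on the subspaces of each kind -/
theorem trans_kd [Finite F] [Module.Finite F V] {Q : QuadraticForm F V} (hQ : Nondeg Q) {ν : F} {k : ℕ}
    (j : Kd F ν k) {W W' : Submodule F V} (h : IsKd Q ν k j W) (h' : IsKd Q ν k j W') (hd : finrank F W = k)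
    (hd' : finrank F W' = k) : ∃ y : O Q, W.map (oAct Q y) = W' := by
  match j, h, h' with
  | none, h, h' =>
    have h0 : ∀ v ∈ W, Q v = 0 := h
    have h0' : ∀ v ∈ W', Q v = 0 := h'
    obtain ⟨b, hb, hbW⟩ := exists_li hd
    obtain ⟨b', hb', hbW'⟩ := exists_li hd'
    have hm : ∀ i, b i ∈ W := fun i => hbW ▸ Submodule.subset_span ⟨i, rfl⟩
    have hm' : ∀ i, b' i ∈ W' := fun i => hbW' ▸ Submodule.subset_span ⟨i, rfl⟩
    obtain ⟨y, hy⟩ := trans_of_gram hQ hb hb' (fun i => by rw [h0 _ (hm i), h0' _ (hm' i)]) (fun i j => by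
      rw [polar, polar, h0 _ (W.add_mem (hm i) (hm j)), h0 _ (hm i), h0 _ (hm j), h0' _ (W'.add_mem (hm' i) (hm' j)),
        h0' _ (hm' i), h0' _ (hm' j)])
    exact ⟨y, by rw [← hbW, ← hbW']; exact hy⟩
  | some p, ⟨b, hb, hbl, hbW⟩, ⟨b', hb', hbl', hbW'⟩ =>
    obtain ⟨h1, h2⟩ := NF_gram k b b' hb hb'
    obtain ⟨y, hy⟩ := trans_of_gram hQ hbl hbl' h1 h2
    exact ⟨y, by rw [← hbW, ← hbW']; exact hy⟩

/-- invariant subspaces of the kinds -/
theorem cover_kd [Finite F] [Module.Finite F V] {Q : QuadraticForm F V} (hQ : Nondeg Q) {ν : F} 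
    (hν : ∀ a : F, a ≠ 0 → ∃ c : F, c ≠ 0 ∧ (a = c ^ 2 ∨ a = ν * c ^ 2)) {x z : O Q}
    (h : ∃ W : Submodule F V, W ≠ ⊥ ∧ W ≠ ⊤ ∧ W.map (oAct Q x) ≤ W ∧ W.map (oAct Q z) ≤ W) :
    ∃ k, 1 ≤ k ∧ 2 * k ≤ finrank F V ∧ ∃ (j : Kd F ν k) (R : Submodule F V), finrank F R = k ∧ IsKd Q ν k j R ∧
        R.map (oAct Q x) ≤ R ∧ R.map (oAct Q z) ≤ R := by
  have hfV := finV F V
  have hfG := finGL F V
  have hr : (polarBilin Q).IsRefl := fun x y h => by
    have h' : polar Q x y = 0 := h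
    show polar Q y x = 0
    rw [polar_comm]
    exact h'
  obtain ⟨R, ⟨hRx, hRz⟩, hR0, hRd, hR⟩ := cover_bilin (B := polarBilin Q) (oAct Q) (nondegenerate_of_nondeg hQ) hr
    (fun y u v => polar_O y.2 u v) h
  have hpos : ∀ R : Submodule F V, R ≠ ⊥ → 1 ≤ finrank F R := by
    intro R hR
    by_contra hlt
    exact hR (Submodule.finrank_eq_zero.1 (by omega))
  -- totally singular subspaces
  have hTS : ∀ R : Submodule F V, R ≠ ⊥ → 2 * finrank F R ≤ finrank F V → (∀ v ∈ R, Q v = 0) →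
      R.map (oAct Q x) ≤ R → R.map (oAct Q z) ≤ R →
      ∃ k, 1 ≤ k ∧ 2 * k ≤ finrank F V ∧ ∃ (j : Kd F ν k) (R : Submodule F V), finrank F R = k ∧ IsKd Q ν k j R ∧
        R.map (oAct Q x) ≤ R ∧ R.map (oAct Q z) ≤ R := fun R h1 h2 h3 h4 h5 =>
    ⟨finrank F R, hpos R h1, h2, none, R, rfl, h3, h4, h5⟩
  rcases hR with hR | hR
  · -- `R` is totally isotropic for the polar form
    have hp : ∀ v ∈ R, ∀ w ∈ R, polar Q v w = 0 := by
      intro v hv w hw
      exact LinearMap.BilinForm.mem_orthogonal_iff.1 (hR hw) v hv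
    -- the singular vectors
    let R0 : Submodule F V :=
      { carrier := {v | v ∈ R ∧ Q v = 0}
        add_mem' := fun {a b} ha hb => ⟨R.add_mem ha.1 hb.1, by
          rw [Q_add, ha.2, hb.2, hp a ha.1 b hb.1, add_zero, add_zero]⟩
        zero_mem' := ⟨R.zero_mem, QuadraticMap.map_zero Q⟩
        smul_mem' := fun c v hv => ⟨R.smul_mem c hv.1, by rw [QuadraticMap.map_smul, hv.2, smul_zero]⟩ }
    by_cases h0 : R0 = ⊥
    · -- then `R` is a nonsingular point
      obtain ⟨a, haR, ha0, ha⟩ := exists_scaled (Q := Q) hν (W := R) (by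
        by_contra hcon
        push Not at hcon
        apply hR0
        rw [← le_bot_iff, ← h0]
        exact fun v hv => ⟨hv, hcon v hv⟩)
      have hane : a ≠ 0 := by
        rintro rfl
        exact ha0 (QuadraticMap.map_zero Q)
      -- every vector is a multiple of `a`
      have h2 : ∀ v ∈ R, Q v ≠ 0 → (2 : F) = 0 := by
        intro v hv hv0
        have h3 := hp v hv v hv
        rw [pself] at h3
        exact (mul_eq_zero.1 h3).resolve_right hv0
      have h2' : (2 : F) = 0 := h2 a haR ha0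
      have hspan : R ≤ Submodule.span F {a} := by
        intro v hv
        -- `Q v = t ^ 2 Q a`
        obtain ⟨t, ht⟩ : ∃ t : F, Q v = t * t * Q a := by
          have hch : ringChar F = 2 := by
            have hcp : CharP F 2 := CharTwo.of_one_ne_zero_of_two_eq_zero one_ne_zero h2'
            exact ringChar.eq F 2 ▸ rfl
          have := Fintype.ofFinite F
          obtain ⟨t, ht⟩ := FiniteField.isSquare_of_char_two hch (Q v * (Q a)⁻¹)
          exact ⟨t, by rw [← ht, mul_assoc, inv_mul_cancel₀ ha0, mul_one]⟩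
        have h4 : v - t • a ∈ R0 := by
          refine ⟨R.sub_mem hv (R.smul_mem _ haR), ?_⟩
          rw [sub_eq_add_neg, ← neg_smul, Q_add, QuadraticMap.map_smul, hp v hv _ (R.smul_mem _ haR), ht, smul_eq_mul]
          linear_combination (t * t * Q a) * h2'
        rw [h0, Submodule.mem_bot, sub_eq_zero] at h4
        exact Submodule.mem_span_singleton.2 ⟨t, h4.symm⟩
      have hReq : R = Submodule.span F {a} := by
        refine le_antisymm hspan ?_
        rw [Submodule.span_singleton_le_iff_mem]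
        exact haR
      have hd : finrank F R = 1 := by rw [hReq]; exact finrank_span_singleton hane
      have hli : LinearIndependent F ![a] := LinearIndependent.of_subsingleton (v := ![a]) 0 hane
      refine ⟨1, le_rfl, by omega, some ⟨(Q a, 0), ha, Or.inr rfl⟩, R, hd, ⟨![a], rfl, hli, ?_⟩, hRx, hRz⟩
      refine span_eq_of_li hli hd fun i => ?_
      rw [Subsingleton.elim i 0]
      exact haR
    · refine hTS R0 h0 ?_ (fun v hv => hv.2) ?_ ?_
      · have := Submodule.finrank_mono (show R0 ≤ R from fun v hv => hv.1)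
        omega
      · rintro _ ⟨v, hv, rfl⟩
        exact ⟨hRx ⟨v, hv.1, rfl⟩, by rw [oAct_apply, mem_O.1 x.2, hv.2]⟩
      · rintro _ ⟨v, hv, rfl⟩
        exact ⟨hRz ⟨v, hv.1, rfl⟩, by rw [oAct_apply, mem_O.1 z.2, hv.2]⟩
  · -- `R` is nondegenerate
    have hnd : (frmQ Q).NdOn R := by
      intro v hv hvw
      have : v ∈ R ⊓ LinearMap.BilinForm.orthogonal (polarBilin Q) R := by
        refine ⟨hv, LinearMap.BilinForm.mem_orthogonal_iff.2 fun w hw => ?_⟩
        show polar Q w v = 0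
        rw [polar_comm]
        exact hvw w hw
      rw [hR] at this
      exact (Submodule.mem_bot F).1 this
    obtain ⟨s, c, hs, hc, b, hb, hbl, hbR⟩ := exists_NF hν (finrank F R) (hpos R hR0) R rfl hnd
    exact ⟨finrank F R, hpos R hR0, hRd, some ⟨(s, c), hs, hc⟩, R, rfl, ⟨b, hb, hbl, hbR⟩, hRx, hRz⟩

/-- the inclusion -/
def incl (Q : QuadraticForm F V) : E Q →* O Q := Subgroup.inclusion E_le_O

/-- **the reducible part, orthogonal groups** -/
theorem red_om [Finite F] [Module.Finite F V] {Q : QuadraticForm F V} (hQ : Nondeg Q) (h8 : 8 ≤ finrank F V)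
    (hF : 4 ≤ Nat.card F) (x : E Q) (hx : ¬ ∃ l : F, ∀ v, (x : V ≃ₗ[F] V) v = l • v) :
    (Nat.card {z : E Q // Red ((oAct Q).comp (incl Q)) x z} : ℝ) ≤ 4992 / Nat.card F * Nat.card (E Q) := by
  classical
  have hfV := finV F V
  have hfG := finGL F V
  obtain ⟨ν, hν0, hν⟩ := exists_nu F
  have hG : Good Q := good_of_finite hQ (by omega)
  have hF4 : (4 : ℝ) ≤ Nat.card F := by exact_mod_cast hF
  have hm : (Nat.card (O Q) : ℝ) ≤ 4 * Nat.card (E Q) := by exact_mod_cast card_O_le hG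
  have hck : ∀ k, (Fintype.card (Kd F ν k) : ℝ) ≤ 1 + 2 * Nat.card F := by
    intro k
    rw [← Nat.card_eq_fintype_card]
    exact_mod_cast (card_kd ν k).1
  have hck' : ∀ k, ¬ Even k → (Fintype.card (Kd F ν k) : ℝ) ≤ 3 := by
    intro k hk
    rw [← Nat.card_eq_fintype_card]
    exact_mod_cast (card_kd ν k).2 hk
  have h := red_of_kinds (oAct Q) (incl Q) (Subgroup.inclusion_injective E_le_O) (m := 4) hm h8 (q := Nat.card F)
    (C1 := 4) hF4 le_rfl (by norm_num) (Kd F ν) (IsKd Q ν)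
    (fun k hk => by
      have h1 : (1 : ℝ) ≤ Nat.card F / 2 := by linarith
      by_cases he : Even k
      · have h2 : 2 ≤ k := by
          obtain ⟨r, hr⟩ := he
          omega
        have h3 : (Nat.card F / 2 : ℝ) ^ 1 ≤ (Nat.card F / 2 : ℝ) ^ (k - 1) := pow_le_pow_right₀ h1 (by omega)
        rw [pow_one] at h3
        linarith [hck k]
      · have h3 : (1 : ℝ) ≤ (Nat.card F / 2 : ℝ) ^ (k - 1) := one_le_pow₀ h1
        linarith [hck' k he])
    (fun k hk => by
      have h3 : (2 : ℝ) ≤ 2 ^ k := by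
        calc (2 : ℝ) = 2 ^ 1 := by norm_num
          _ ≤ 2 ^ k := pow_le_pow_right₀ (by norm_num) hk
      nlinarith [hck k])
    (fun k hk1 hk2 j W W' hW hW' hd hd' => trans_kd hQ j hW hW' hd hd')
    (fun v hv => orb1 hQ (by omega) hv)
    (fun v u hv hu => orb2 hQ (by omega) hv hu)
    (fun k hk1 hk2 j W hW hd c hc => ker_count hQ (by omega) hk2 hd hc)
    x (by
      rintro ⟨l, hl⟩
      exact hx ⟨l, hl⟩)
    (fun z hz => cover_kd hQ hν hz)
  refine h.trans (le_of_eq ?_)
  ring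

end

open Cfsg.Agent.H141.Ux (cnt Sca)

/-- **the orthogonal part of `UR2`** -/
theorem ur_om : ∀ (F V : Type) [Field F] [Finite F] [AddCommGroup V] [Module F V] [Module.Finite F V]
    (Q : QuadraticForm F V), (frmQ Q).Nd → 8 ≤ finrank F V → 4 ≤ Nat.card F → ∀ x ∈ E Q, ¬ Sca x →
    (cnt (E Q) (fun y => ¬ IrrG (Subgroup.closure {x, y})) : ℝ) * Nat.card F ≤ 4992 * Nat.card (E Q) := by
  intro F V _ _ _ _ _ Q hQ h8 hF x hx hxs
  have hfV := finV F V
  have hfG := finGL F V
  have h := red_om (Q := Q) hQ h8 hF ⟨x, hx⟩ (fun h => hxs h)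
  have h1 : cnt (E Q) (fun y => ¬ IrrG (Subgroup.closure {x, y})) ≤
      Nat.card {z : E Q // Red ((oAct Q).comp (incl Q)) ⟨x, hx⟩ z} := by
    refine Nat.card_le_card_of_injective (fun y => ⟨⟨y.1, y.2.1⟩, ?_⟩) fun a b hab => ?_
    · have h2 := y.2.2
      unfold IrrG at h2
      push Not at h2
      obtain ⟨W, hW, h0, h1⟩ := h2
      refine ⟨W, h0, h1, ?_, ?_⟩
      · rintro _ ⟨v, hv, rfl⟩
        exact hW x (Subgroup.subset_closure (Set.mem_insert _ _)) v hv
      · rintro _ ⟨v, hv, rfl⟩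
        exact hW y.1 (Subgroup.subset_closure (Set.mem_insert_of_mem _ rfl)) v hv
    · have h2 : (⟨a.1, a.2.1⟩ : E Q) = ⟨b.1, b.2.1⟩ := congrArg Subtype.val hab
      exact Subtype.ext (congrArg (fun t : E Q => (t : V ≃ₗ[F] V)) h2)
  have hF0 : (0 : ℝ) < Nat.card F := by exact_mod_cast (Nat.card_pos : 0 < Nat.card F)
  have h2 : (cnt (E Q) (fun y => ¬ IrrG (Subgroup.closure {x, y})) : ℝ) ≤
      4992 / Nat.card F * Nat.card (E Q) := le_trans (by exact_mod_cast h1) h
  rw [div_mul_eq_mul_div, le_div_iff₀ hF0] at h2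
  exact h2

end Cfsg.Agent.H888.Rx
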