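import Cfsg.Agent.H262.Rx.UR2
import Cfsg.Agent.H888.Rx.RedOm

/-!
# UR2 (helper888, from helper262's `ur2` and `ur_om`)
-/

set_option autoImplicit false

namespace Cfsg.Agent.H888.Rx

/-- the orthogonal case -/
theorem urOm : H262.Rx.UrOm := ⟨4992, ur_om⟩

/-- **UR2** -/
theorem ur2 : H141.Ux.UR2 := H262.Rx.ur2 urOm

end Cfsg.Agent.H888.Rx
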